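import Cfsg.Agent.H6.Co3.P.Tab0

set_option autoImplicit false
set_option maxRecDepth 100000
set_option Elab.async false

namespace Cfsg.H6.Co3.P

theorem p0 : allR (ptU img) 0 448 = true := by decide +kernel

theorem p1 : allR (ptU img) 448 448 = true := by decide +kernel

theorem p2 : allR (ptU img) 896 448 = true := by decide +kernel

theorem p3 : allR (ptU img) 1344 39 = true := by decide +kernel

end Cfsg.H6.Co3.P
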