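import Cfsg.Agent.H6.PG

set_option autoImplicit false
set_option maxRecDepth 100000
set_option Elab.async false

namespace Cfsg.H6.Co3.P

def R : List (List ℕ) := [[1,1,15], [3,3,15], [5,5,15], [7,7,15], [9,9,15], [11,11,15], [13,13,15], [1,3,2,4,15], [1,5,1,6,2,6], [1,7,2,8,15], [1,9,2,10,15], [1,11,2,12,15], [1,13,2,14,15], [3,5,4,6,15], [3,7,3,8,4,8], [3,9,4,10,15], [3,11,4,12,15], [3,13,4,14,15], [5,7,5,8,6,8], [5,9,6,10,15], [5,11,6,12,15], [5,13,6,14,15], [7,9,7,10,8,10], [7,11,8,12,15], [7,13,8,14,15], [9,11,9,12,10,12], [9,13,10,14,15], [11,13,11,14,12,14], [1,3,5,7,9,11,13,1,3,5,7,9,11,13,1,3,5,7,9,11,13,1,3,5,7,9,11,13,1,3,5,7,9,11,13,1,3,5,7,9,11,13,1,3,5,7,9,11,13,1,3,5,7,9,11,13,1,3,5,7,9,11,13], [17,3,9,13], [19,1,6], [21,5,9,11,9,7,3,5,1,7,5,13,11,9,7,3,5,1,7,5,9,8], [23,1,11,9,13,11], [25,9,13], [27,1,5,7,3,5,7,9,7,3,5,1,7,5,11,9,7,3,5,7,9,11,13,11,9,7,3,5,7,9,11], [29,1,5,7,3,9,7,11,9,7,3,5,7,9,11,13,11,9,7,3,5,1,7,5,9,7,3,11,9,7,6],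 [31,3,9,11,9,13,11,10]]

def X : List (List ℕ) := [[1], [3], [5], [7], [9], [11], [13], [15], [16], [18], [20], [22], [24], [26], [28], [30]]

/-- The presented group. -/
abbrev Grp : Type := PG 13624351749991550511698068748508164879753244925903185760754073106949632754176 R

def ev : ℕ → Grp := pgEv 13624351749991550511698068748508164879753244925903185760754073106949632754176 R

theorem hev : Good ev 13624351749991550511698068748508164879753244925903185760754073106949632754176 := pg_good _ _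

theorem hR : Rels ev R := pg_rels _ _

theorem hX : gen ev X = ⊤ := pg_gen (m := 32) (by decide +kernel)

theorem lift {G : Type*} [Group G] {ev' : ℕ → G} (h : Good ev' 13624351749991550511698068748508164879753244925903185760754073106949632754176) (h' : Rels ev' R) :
    ∃ φ : Grp →* G, ∀ l, φ (ev l) = ev' l := pg_lift h h'

end Cfsg.H6.Co3.P
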