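import Cfsg.Agent.H6.Co3.P.Pres
import Cfsg.Agent.H6.Co3.P.Chk0

set_option autoImplicit false
set_option maxRecDepth 100000
set_option Elab.async false

namespace Cfsg.H6.Co3.P

theorem ptOK : PtOK img 1383 LS EQS := ptOK_of_chk fun p h1 h2 => by
  rw [← ptU_eq]
  exact (range_join (range_join (allR_range p0 (by norm_num : 0 + 448 = 448)) (allR_range p1 (by norm_num : 448 + 448 = 896))) (range_join (allR_range p2 (by norm_num : 896 + 448 = 1344)) (allR_range p3 (by norm_num : 1344 + 39 = 1383)))) p h1 h2

theorem hrep : repOK 32 13624351749991550511698068748508164879753244925903185760754073106949632754176 LS EQS D Co3.P.R = true := by decide +kernel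

theorem rep : Good (evR img 1383 32) 13624351749991550511698068748508164879753244925903185760754073106949632754176 ∧ Rels (evR img 1383 32) Co3.P.R ∧
    IsAct (MonoidHom.id _) (evR img 1383 32) img 1383 32 := rep_sound ptOK hrep


end Cfsg.H6.Co3.P
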